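import Mathlib
import Cfsg.Agent.FH.Frob

/-! Fixed point free nonabelian groups of order `p q`: Fitting height at most two. -/

set_option autoImplicit false

namespace Cfsg.Agent.FH
open Cfsg.Agent.FT Cfsg.Agent.PLocal.CommMod Subgroup
open scoped commutatorElement

universe u

variable {G : Type u} [Group G] [Finite G]

theorem le_comm_of_fpf {X : Subgroup G} {a : G} (ha : zpowers a ≤ 𝒩(X))
    (hcop : (Nat.card (zpowers a)).Coprime (Nat.card X)) (h : X ⊓ 𝒞(zpowers a) ≤ ⊥) :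
    X ≤ ⁅X, zpowers a⁆ :=
  (Solv.coprime_commutator_sup_centralizer _ X ha hcop (Or.inl (solv_cyc a))).ge.trans
    (sup_le le_rfl (h.trans bot_le))

theorem FA.comm_fix {l p : ℕ} {K M P Z : Subgroup G} {k h : G} (f : FA K k h) (H : Hon l p M P)
    (hM : M ≤ K) (hP : P ≤ K) (hZ : Z ≤ P ⊓ 𝒞[k]) : ⁅M, Z⁆ ⊓ 𝒞[k] = ⊥ := by
  have := H.elem.1
  have h1 := hZ.trans inf_le_left
  have hc := cop_le H.cop h1 le_rfl
  rw [eq_bot_iff, ← Solv.coprime_centralizer_inf_commutator Z M (h1.trans H.norm) hc]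
  have h2 := inf_le_inf_right 𝒞[k] (comm_le_left (h1.trans H.norm))
  exact le_inf (le_inf (h2.trans inf_le_left) (h2.trans (comm_eq_bot_iff.mp (eq_bot_iff.mpr
    ((comm_le_res (inf_le_inf_right _ hM) (hZ.trans (inf_le_inf_right _ hP))
      (cop_le hc.symm inf_le_left le_rfl)).trans f.res_cent.le))))) inf_le_left

theorem pq_core {l p q : ℕ} {K M P Q : Subgroup G} {k h : G} (f : FA K k h)
    (t : Tri l p q M P Q k) (s : Tri l p q M P Q h) (hM : M ≤ K) (hP : P ≤ K) (hQ : Q ≤ K)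
    (hPQ : P ≤ ⁅P, Q⁆) (hPk : P ≤ ⁅P, zpowers k⁆) (hQk : Q ≤ 𝒞[k]) (hx : ∀ x ∈ Q, x ^ q ∈ 𝒞(P)) :
    P = ⊥ := by
  have hAM : fA k h ≤ 𝒩(M) := sup_le (zpowers_le.mpr t.αM) (zpowers_le.mpr s.αM)
  have hAP : fA k h ≤ 𝒩(P) := sup_le (zpowers_le.mpr t.αP) (zpowers_le.mpr s.αP)
  have hkP := zpowers_le.mpr t.αP
  have hl : ∀ X ≤ P, ¬ l ∣ Nat.card X := fun X hX => not_dvd_pgroup t.hl t.hp t.ne (t.pgrp.to_le hX)
  have h0 : P ⊓ 𝒞[k] = ⊥ := by
    have h1 : P ⊓ 𝒞[k] ≤ 𝒞(P) := (cent_zpowers k ▸ cent_le_der hkP t.copP hPk).trans t.cls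
    have h2 := f.comm_fix t.toHon hM hP le_rfl
    have h3 := elem_of_le t.elem (comm_le_left ((inf_le_left (b := 𝒞[k])).trans t.norm))
    have h4 : P ≤ 𝒩(⁅M, P ⊓ 𝒞[k]⁆) := norm_comm t.norm (le_norm_of_le_cent (le_cent_comm.mp h1))
    have h5 : k ∈ 𝒩(⁅M, P ⊓ 𝒞[k]⁆) := norm_comm (zpowers_le.mpr t.αM)
      (norm_inf hkP (norm_cent1 (zpowers_le.mpr (mem_cent1_self k)))) (mem_zpowers k)
    have h6 := (comm_le_left (norm_der hkP)).trans (le_inf (der_le P) t.cls)
    refine t.toHon.eq_bot inf_le_left (inf_le_left.trans (hPQ.trans (commutator_le.mpr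
      fun a ha x hxQ => ga_pow (a := 0) t.hl t.hp t.hq t.ne h3 t.pgrp t.cls t.hr t.rp t.rq t.qp
        (t.Rp.to_le (zpowers_le.mpr hxQ)) (hQk hxQ) h4
        (norm_comm t.RM (norm_inf t.RP (norm_cent1 hQk)) hxQ) h5 (t.RP hxQ) t.αP
        (t.Rc.trans (cent_le_cent1 hxQ)) (frob_elem t.hl h3 t.hr ((h6.trans inf_le_left).trans h4) h5
          (Solv.le_normalizer_commutator_right _ _ (mem_zpowers k)) (hl _ (h6.trans inf_le_left))
          ((comm_eq_bot_iff.mpr ((h6.trans inf_le_right).trans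
            (cent_anti (h6.trans inf_le_left)))).le.trans bot_le)
          (comm_comm_eq (norm_der hkP) (cop_le t.copP le_rfl (der_le P)) (Or.inl (solv_cyc k))) h2)
        hPk (by simpa using hx x hxQ) (Or.inr h2)
        (commutator_mem_commutator ha (by simp)))))
  have hQh : Q ≤ ⁅Q, zpowers h⁆ := le_comm_of_fpf (zpowers_le.mpr s.αR) s.copR
    ((inf_le_inf_right _ (le_inf hQ hQk)).trans f.fixk.le)
  have hd : ⁅P, P⁆ = ⊥ := by
    have hZ : IsMulCommutative ↥⁅P, P⁆ := abelian_iff.mpr (t.cls.trans (cent_anti (der_le P)))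
    have hZM := (der_le P).trans t.norm
    have hAZ := norm_der hAP
    have g := f.sub hM hAM
    have h1 := g.vp_fix t.hl t.elem hZ hZM (hl _ (der_le P)) (f.sub ((der_le P).trans hP) hAZ)
    set V := ⁅M ⊓ 𝒞(⁅⁅P, P⁆, zpowers h⁆), ⁅P, P⁆⁆
    have hD := comm_le_left (le_sup_right.trans hAZ)
    have hn : ∀ X, X ≤ 𝒩(M) → X ≤ 𝒞(⁅P, P⁆) → X ≤ 𝒩(V) := fun X h1 h2 =>
      norm_comm (norm_inf h1 (norm_cent (le_norm_of_le_cent (h2.trans (cent_anti hD)))))
        (le_norm_of_le_cent h2)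
    have hPV := hn P t.norm (le_cent_comm.mp t.cls)
    have hHP := zpowers_le.mpr s.αP
    have hHV : zpowers h ≤ 𝒩(V) := norm_comm (norm_inf (zpowers_le.mpr s.αM)
      (norm_cent (Solv.le_normalizer_commutator_right _ _))) (norm_der hHP)
    have h2 := (commutator_mono (hPQ.trans (commutator_mono le_rfl hQh)) le_rfl).trans
      (exc t.hl t.hp t.hq t.ne t.qp (elem_of_le t.elem ((commutator_mono inf_le_left le_rfl).trans
        (comm_le_left hZM))) t.pgrp t.cls t.pow s.hr s.rl s.rp s.rq s.αP t.Rp t.RP s.αR t.Rc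
        ((comm_le_left hHP).trans hPV) (hHV (mem_zpowers h)) h1)
    have h3 := (le_centMod' (norm_cent hHV)).mpr h2
    have h4 := (hQh.trans (commutator_mono le_rfl h3)).trans
      (comm_le_right (norm_centMod t.RP (norm_cent (hn Q t.RM (le_cent_comm.mp t.Rc)))))
    exact eq_bot_iff.mpr ((le_inf (der_le P) (g.vp_faith t.hl t.elem hZ hZM (hl _ (der_le P)) hAZ
      (le_comm_of_fpf (norm_der hkP) (cop_le t.copP le_rfl (der_le P))
        (cent_zpowers k ▸ (inf_le_inf_right _ (der_le P)).trans h0.le))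
      ((der_le P).trans (hPQ.trans ((commutator_mono le_rfl h4).trans
        (comm_centMod_le _ _)))))).trans t.faith.le)
  exact eq_bot_iff.mpr ((le_inf le_rfl (elem_pq t.hl t.elem (abelian_iff_commutator_eq_bot.mpr hd)
    (hl P le_rfl) t.norm t.RM hAM f.hk f.hh f.norm hAP t.RP hPk hPQ (cent_zpowers k ▸ hQk) hQh t.copR
    (f.sub hM hAM).fix)).trans t.faith.le)

theorem FA.resN_two {K : Subgroup G} {k h : G} (f : FA K k h) : resN 2 K = ⊥ := by
  by_contra hne
  obtain ⟨p, T, t⟩ := exists_mt f.solv f.AK f.cop hne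
  have hk : k ∈ fA k h := mem_sup_left (mem_zpowers k)
  have hh : h ∈ fA k h := mem_sup_right (mem_zpowers h)
  have h1 := t.top_le f.cop hk f.hk f.res_cent
  have h2 := t.le_cent le_sup_left f.normk f.cop 2 fun m _ _ => by rwa [show m = 2 by omega]
  have h3 := t.le_comm (k := 1) le_sup_left f.normk one_le_two h2 fun hc => by
    have h4 := t.le_cent le_sup_left f.normk f.cop 1 fun m _ _ => by
      obtain rfl | rfl : m = 1 ∨ m = 2 := by omega
      exacts [hc, h1]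
    rw [cent_zpowers] at h4
    exact t.ne_bot one_le_two (eq_bot_iff.mpr ((le_res_of_le_comm (le_inf (t.le 1) (h4 1 le_rfl))
      (le_inf (t.le 2) (h4 2 one_le_two)) (t.comm one_lt_two)).trans f.res_cent.le))
  have := t.normal (k := 0) zero_le_two
  have hL := fun m => le_up (fA k h) T (Nat.zero_le m)
  have hA : fA k h ≤ up (fA k h) T 0 := le_sup_left
  have hm := fun m => Qt.mono (L := up (fA k h) T 0) (N := kN T 0) (le_inf (t.le m) (hL m))
  refine t.nle one_le_two ((t.bot_iff' two_pos le_rfl).mp (pq_core ((f.sub inf_le_left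
    (norm_inf f.AK (hA.trans (le_norm_self _)))).qt hA inf_le_right (t.kN_le_up 0)
      (cop_le f.cop le_rfl (t.kN_le 0))) (t.tri f.cop hk f.hk one_lt_two)
    (t.tri f.cop hh f.hh one_lt_two) (hm 0) (hm 1) (hm 2) ?_ ?_
    (qt_cent1 _ (cent_zpowers k ▸ h2 2 le_rfl)) fun y hy => ?_))
  · rw [← Qt.qt_comm (hL _) (hL _)]; exact Qt.mono (t.comm one_lt_two)
  · rw [← qt_comm1 _ (hL _)]; exact Qt.mono h3
  · obtain ⟨x, hx, rfl⟩ := Qt.mem_qt.mp hy
    exact (Qt.le_cent_iff' ((MT.F_le T 2).trans (hL 2)) (hL 1)).mpr (((commutator_mono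
      (t.F_top.trans inf_le_right) le_rfl).trans (commutator_centMod_le _ _)).trans
        (t.C_le_kN two_pos)) (Qt.mk_mem (x := x ^ p 2) ((t.sec le_rfl).pow x hx))

theorem exists_pq {A : Type*} [Group A] [Finite A] {p q : ℕ} (hp : p.Prime) (hq : q.Prime)
    (hqp : q < p) (hA : Nat.card A = p * q) (hna : ¬ IsMulCommutative A) :
    ∃ k h : A, orderOf k = p ∧ orderOf h = q ∧ (zpowers k).Normal ∧ fA k h = ⊤ ∧
      zpowers k ⊓ 𝒞[h] = ⊥ := by
  have := Fact.mk hp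
  have := Fact.mk hq
  obtain ⟨k, hk⟩ := exists_prime_orderOf_dvd_card' (G := A) p (hA ▸ dvd_mul_right p q)
  obtain ⟨h, hh⟩ := exists_prime_orderOf_dvd_card' (G := A) q (hA ▸ dvd_mul_left q p)
  have h1 : fA k h = ⊤ := eq_top_of_card_eq _ (Nat.dvd_antisymm (card_subgroup_dvd_card _) (hA ▸
    ((Nat.coprime_primes hp hq).mpr hqp.ne').mul_dvd_of_dvd_of_dvd
      (hk ▸ orderOf_dvd_natCard _ (mem_sup_left (mem_zpowers k)))
      (hh ▸ orderOf_dvd_natCard _ (mem_sup_right (mem_zpowers h)))))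
  refine ⟨k, h, hk, hh, normal_of_index_eq_minFac_card ?_, h1, ?_⟩
  · have := (zpowers k).card_mul_index
    rw [Nat.card_zpowers, hk, hA] at this
    rw [Nat.eq_of_mul_eq_mul_left hp.pos this, hA]
    refine le_antisymm ?_ (Nat.minFac_le_of_dvd hq.two_le (dvd_mul_left q p))
    have h2 := Nat.minFac_prime (n := p * q) (by nlinarith [hp.two_le, hq.two_le])
    rcases h2.dvd_mul.mp (Nat.minFac_dvd _) with h | h
    · exact hqp.le.trans ((Nat.prime_dvd_prime_iff_eq h2 hp).mp h).ge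
    · exact ((Nat.prime_dvd_prime_iff_eq h2 hq).mp h).ge
  · refine eq_bot_iff.mpr fun b hb => by_contra fun h1' => hna ?_
    have h2 := abelian_sup (H := zpowers k) (K := zpowers h) inferInstance inferInstance (by
      rw [← zpowers_eq_of_card_prime (by rwa [Nat.card_zpowers, hk]) hb.1 h1', cent_zpowers]
      exact zpowers_le.mpr hb.2)
    exact ⟨⟨fun a b => congrArg Subtype.val (h2.is_comm.comm ⟨a, h1.ge trivial⟩ ⟨b, h1.ge trivial⟩)⟩⟩

end Cfsg.Agent.FH
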