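import Mathlib
import Cfsg.Agent.FH.PQ
import Cfsg.Agent.FH.Ext

/-! Fixed point free actions of the symmetric group of degree three. -/

set_option autoImplicit false

namespace Cfsg.Agent.FH
open Cfsg.Agent.FT Cfsg.Agent.PLocal.CommMod Subgroup
open scoped commutatorElement

universe u

variable {G : Type u} [Group G]

theorem comm_sup_sup_le {N X Y : Subgroup G} (hX : X ≤ 𝒩(N)) (hY : Y ≤ 𝒩(N)) (h : ⁅X, Y⁆ ≤ N) :
    ⁅N ⊔ X, N ⊔ Y⁆ ≤ N :=
  commutator_sup_le (le_norm_self N) hX (comm_le_left (sup_le (le_norm_self N) hY))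
    (commutator_sup_le' (le_norm_self N) hY (comm_le_right hX) h)

variable [Finite G]

theorem ne_of_cop {p : ℕ} (hp : p.Prime) {A X : Subgroup G} (hX : IsPGroup p X) (h0 : X ≠ ⊥)
    (h : (Nat.card A).Coprime (Nat.card X)) : Nat.card A ≠ p := fun e =>
  h0 (pgroup_eq_bot hp hX le_rfl (hp.coprime_iff_not_dvd.mp (e ▸ h)))

theorem s3_core {l p : ℕ} {K M P : Subgroup G} {k h : G} (f : FA K k h) (H : Hon l p M P)
    (hM : M ≤ K) (hP : P ≤ K) (hAM : fA k h ≤ 𝒩(M)) (hAP : fA k h ≤ 𝒩(P))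
    (h3 : Nat.card (zpowers k) = 3) (h2 : Nat.card (zpowers h) = 2) : ⁅P, P⁆ = ⊥ := by
  classical
  by_contra hne
  have := Fact.mk H.hp
  have hP0 : P ≠ ⊥ := fun e => hne (by rw [e, commutator_bot_left])
  have hM0 : M ≠ ⊥ := fun e => hP0 (by simpa [e, cent_bot] using H.faith)
  have hk : k ∈ fA k h := mem_sup_left (mem_zpowers k)
  have hh : h ∈ fA k h := mem_sup_right (mem_zpowers h)
  have hp2 : p ≠ 2 := h2 ▸ (ne_of_cop H.hp H.pgrp hP0 (f.coph hP)).symm
  have key : ∀ a ∈ fA k h, (Nat.card (zpowers a)).Prime → ∀ W ≤ M, P ≤ 𝒩(W) → a ∈ 𝒩(W) →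
      W ⊓ 𝒞[a] = ⊥ → ⁅P, zpowers a⁆ ≤ P ⊓ 𝒞(W) := fun a ha h1 W hW h4 h5 h6 =>
    le_inf (comm_le_left (zpowers_le.mpr (hAP ha))) (hh_odd H.hl H.hp H.ne (elem_of_le H.elem hW)
      H.pgrp (Or.inl hp2) h1
      (ne_of_cop H.hl (elem_pgroup H.elem) hM0 (cop_le f.cop (zpowers_le.mpr ha) hM))
      (ne_of_cop H.hp H.pgrp hP0 (cop_le f.cop (zpowers_le.mpr ha) hP)) (hAP ha) h4 h5 h6)
  set Z := ⁅P, P⁆ ⊓ 𝒞(P)
  have hZP : Z ≤ P := inf_le_left.trans (der_le P)
  have hAZ : fA k h ≤ 𝒩(Z) := norm_inf (norm_der hAP) (norm_cent hAP)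
  have hPZ : ∀ X ≤ Z, P ≤ 𝒩(X) := fun X hX =>
    le_norm_of_le_cent (le_cent_comm.mp (hX.trans inf_le_right))
  have hC := der_eq_bot_of_invol (by rw [← h2, Nat.card_zpowers, pow_orderOf_eq_one])
    (f.cent_norm hh) (cent_zpowers h ▸ f.fixk)
  have hkP := zpowers_le.mpr (hAP hk)
  have h0 : Z ⊓ 𝒞[k] = ⊥ := by
    have h4 := (inf_le_left (b := 𝒞[k])).trans hZP
    have h5 := (Solv.coprime_commutator_sup_centralizer _ P hkP (f.copk hP)
      (Or.inl (solv_cyc k))).ge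
    have h6 := inf_le_left.trans (b := P) (c := 𝒩(⁅P, zpowers k⁆)) (a := P ⊓ 𝒞(zpowers k))
      (Solv.le_normalizer_commutator_left _ _)
    refine H.eq_bot h4 (inf_le_left.trans (inf_le_left.trans (((commutator_mono h5 h5).trans
      (comm_sup_sup_le h6 h6 ?_)).trans ((key k hk f.hk _ (comm_le_left (h4.trans H.norm))
        (norm_comm H.norm (hPZ _ inf_le_left)) (norm_comm hAM (norm_inf hAZ
          (cent_zpowers k ▸ norm_cent f.normk)) hk)
        (f.comm_fix H hM hP (inf_le_inf_right _ hZP))).trans inf_le_right))))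
    exact (der_mono (cent_zpowers k ▸ inf_le_inf_right _ hP)).trans (hC.le.trans bot_le)
  have hZ : IsMulCommutative Z := abelian_iff.mpr (inf_le_right.trans (cent_anti hZP))
  have hlZ := not_dvd_pgroup H.hl H.hp H.ne (H.pgrp.to_le hZP)
  have g := f.sub hM hAM
  have h4 := g.vp_fix H.hl H.elem hZ (hZP.trans H.norm) hlZ (f.sub (hZP.trans hP) hAZ)
  set V := ⁅M ⊓ 𝒞(⁅Z, zpowers h⁆), Z⁆
  have hPV : P ≤ 𝒩(V) := norm_comm (norm_inf H.norm (norm_cent (hPZ _
    (comm_le_left (le_sup_right.trans hAZ))))) (hPZ Z le_rfl)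
  have hHV : zpowers h ≤ 𝒩(V) := norm_comm (norm_inf (le_sup_right.trans hAM)
    (norm_cent (Solv.le_normalizer_commutator_right _ _))) (le_sup_right.trans hAZ)
  have h5 := key h hh f.hh V ((commutator_mono inf_le_left le_rfl).trans
    (comm_le_left (hZP.trans H.norm))) hPV (hHV (mem_zpowers h)) h4
  set N := P ⊓ 𝒞(V)
  have hPN : P ≤ 𝒩(N) := norm_inf (le_norm_self P) (norm_cent hPV)
  have e := f.sub hP hAP
  have h6 : ∀ b ∈ zpowers k, cj b P = P := fun b hb => cj_of_mem_normalizer (hkP hb)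
  have h7 : ∀ b ∈ zpowers k, cj b N ≤ P := fun b hb => h6 b hb ▸ cj_mono b inf_le_left
  have h8 : ∀ b ∈ zpowers k, b ≠ 1 → P ≤ N ⊔ cj b N := fun b hb h1 =>
    e.le_of_comm (sup_le inf_le_left (h7 b hb)) hb h1 (h5.trans le_sup_left) (le_sup_of_le_right
      (by rw [← cj_zpowers, ← h6 b hb, ← cj_commutator]; exact cj_mono b h5))
  have h9 : ∀ b ∈ zpowers k, P ≤ 𝒩(cj b N) := fun b hb => by
    rw [← cj_normalizer, ← h6 b hb]; exact cj_mono b hPN
  have hk1 : k ≠ 1 := fun e => by simp [e] at h3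
  have m1 := mem_zpowers k
  have m2 := inv_mem m1
  have h10 : cj k N ⊓ cj k⁻¹ N ≤ N := fun d hd => by
    have hd' := h7 k m1 hd.1
    refine e.mem_of_norm hPN (norm_inf (le_sup_right.trans hAP) (norm_cent hHV)) hd'
      ⟨hPN hd', fun y hy => h5 (commutator_mem_commutator hd' hy)⟩ fun a ha h1 => ?_
    rw [Nat.card_zpowers] at h3
    obtain ⟨i, hi, rfl⟩ := Finset.mem_image.mp (mem_zpowers_iff_mem_range_orderOf.mp ha)
    rw [h3, Finset.mem_range] at hi
    interval_cases i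
    · simp at h1
    · simpa using mem_cj.mp hd.2
    · rw [show k ^ 2 = k⁻¹ by
        rw [eq_inv_iff_mul_eq_one, ← pow_succ]; exact orderOf_dvd_iff_pow_eq_one.mp h3.dvd]
      simpa using mem_cj.mp hd.1
  have h11 := (commutator_mono (h8 k m1 hk1) (h8 _ m2 (inv_ne_one.mpr hk1))).trans
    (comm_sup_sup_le ((h7 k m1).trans hPN) ((h7 _ m2).trans hPN) ((le_inf
      (comm_le_left ((h7 _ m2).trans (h9 k m1))) (comm_le_right ((h7 k m1).trans (h9 _ m2)))).trans h10))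
  exact PLocal.Amb.inf_centralizer_ne_bot H.pgrp (H.pgrp.to_le (der_le P))
    (norm_der (le_norm_self P)) hne (eq_bot_iff.mpr ((le_inf hZP (g.vp_faith H.hl H.elem hZ
      (hZP.trans H.norm) hlZ hAZ (le_comm_of_fpf (le_sup_left.trans hAZ) (f.copk (hZP.trans hP))
        (cent_zpowers k ▸ h0.le)) (inf_le_left.trans (h11.trans inf_le_right)))).trans H.faith.le))

theorem FA.res_der {K : Subgroup G} {k h : G} (f : FA K k h) (h3 : Nat.card (zpowers k) = 3)
    (h2 : Nat.card (zpowers h) = 2) : res ⁅K, K⁆ = ⊥ := by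
  by_contra hne
  have hLK : K ⊔ fA k h ≤ 𝒩(K) := sup_le (le_norm_self K) f.AK
  obtain ⟨l, N, h1, -, h4, h5⟩ := chief_res (isSolvable_of_le (der_le K) f.solv)
    ((der_le K).trans le_sup_left) (norm_der hLK) (le_top.trans norm_bot.ge) (mt le_bot_iff.mp hne)
  set V := res ⁅K, K⁆
  have hVK : V ≤ K := (res_le _).trans (der_le K)
  have hKN := le_sup_left.trans h1.LN
  have hKC := le_sup_left.trans h1.norm_cm
  have h6 : res K ≤ centMod V N := by
    by_contra hc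
    obtain ⟨r, R, a1, a2, a3, -, a4⟩ := exists_inv_syl (A := ⊥) bot_le (by simp)
      (Or.inl inferInstance) hc
    have a5 := (a3.trans (res_le K)).trans hKN
    refine a4 ((le_centMod' a5).mpr ?_)
    by_cases e : l = r
    · exact h5 R (a3.trans (res_le_der K)) (e ▸ a2)
    obtain ⟨S, hS⟩ := B12.exists_syl h1.prime V
    exact (commutator_mono (h1.le_sup_syl hS) le_rfl).trans (comm_sup_le a5 (hS.1.trans h1.norm) le_rfl
      ((comm_le_res (hS.1.trans (res_mono (der_le K))) a3 (coprime_pgroup h1.prime a1 e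
        (B12.syl_isPGroup h1.prime hS) a2)).trans (f.resN_two.le.trans bot_le)))
  have h7 : ∀ (p : ℕ) (P : Subgroup G), p.Prime → IsPGroup p P → P ≤ K → fA k h ≤ 𝒩(P) → ⁅P, P⁆ ≤ centMod V N := by
    intro p P a1 a2 a3 a4
    by_cases e : l = p
    · exact (le_centMod' (((der_le P).trans a3).trans hKN)).mpr
        (h5 _ (der_mono a3) (e ▸ a2.to_le (der_le P)))
    have hPL : P ≤ K ⊔ fA k h := a3.trans le_sup_left
    have b1 : V ≤ V ⊔ (P ⊔ fA k h) := le_sup_left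
    have b2 : P ≤ V ⊔ (P ⊔ fA k h) := le_sup_left.trans le_sup_right
    have b3 : fA k h ≤ V ⊔ (P ⊔ fA k h) := le_sup_right.trans le_sup_right
    have b4 : kq V N P ≤ V ⊔ (P ⊔ fA k h) := sup_le (h1.le.trans b1) (inf_le_left.trans b2)
    have := NormIn.normal (H := kq V N P) ⟨b4, sup_le (h1.norm_kq' hPL)
      (h1.norm_kq (sup_le hPL le_sup_right) (sup_le (le_norm_self P) a4))⟩
    have hcop := cop_le f.cop le_rfl
      (sup_le (h1.le.trans hVK) (inf_le_left.trans a3) : kq V N P ≤ K)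
    have m1 : k ∈ fA k h := mem_sup_left (mem_zpowers k)
    have m2 : h ∈ fA k h := mem_sup_right (mem_zpowers h)
    have e' := fun X (hX : fA k h ≤ 𝒩(X)) => sup_le
      (zpowers_le.mpr (qt_norm1 (N := kq V N P) ⟨k, b3 m1⟩ (hX m1)))
      (zpowers_le.mpr (qt_norm1 (N := kq V N P) ⟨h, b3 m2⟩ (hX m2)))
    rw [← h1.qt_eq_bot' b2 (der_le P), Qt.qt_comm b2 b2]
    exact s3_core ((f.sub inf_le_left (norm_inf f.AK (b3.trans (le_norm_self _)))).qt b3 inf_le_right
      b4 hcop) (h1.hon a1 e a2 hPL b1 b2) (Qt.mono (le_inf hVK b1)) (Qt.mono (le_inf a3 b2))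
      (e' V (le_sup_right.trans h1.LV)) (e' P a4)
      ((qt_card1 ⟨k, b3 m1⟩ (cop_le hcop le_sup_left le_rfl)).trans h3)
      ((qt_card1 ⟨h, b3 m2⟩ (cop_le hcop le_sup_right le_rfl)).trans h2)
  refine h4 ((le_centMod' ((der_le K).trans hKN)).mp ((le_centMod' hKC).mp
    (Solv.le_of_forall_sylow_le K _ fun p hp => ?_)))
  obtain ⟨P, hP⟩ := Solv.exists_invariant_sylow _ K f.AK f.cop (Or.inr f.solv) p
  refine ⟨P, (le_centMod' ((map_subtype_le _).trans hKC)).mpr (le_centMod.mp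
    (Solv.le_of_forall_sylow_le K _ fun r hr => ?_)).2⟩
  by_cases e : r = p
  · subst e
    exact ⟨P, le_centMod.mpr ⟨(map_subtype_le _).trans hKC,
      h7 r _ hr.out (P.2.map _) (map_subtype_le _) hP⟩⟩
  · obtain ⟨R⟩ : Nonempty (Sylow r K) := inferInstance
    exact ⟨R, le_centMod.mpr ⟨(map_subtype_le _).trans hKC, (comm_le_res (map_subtype_le _)
      (map_subtype_le _) (coprime_pgroup hr.out hp.out e (R.2.map _) (P.2.map _))).trans h6⟩⟩

open Solv.Ext in
theorem exists_fa {A G : Type*} [Group A] [Group G] [MulDistribMulAction A G] [Finite A] [Finite G]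
    [Finite (SD A G)] (hs : Group.IsSolvable G) {p q : ℕ} (hp : p.Prime) (hq : q.Prime) (hqp : q < p)
    (hA : Nat.card A = p * q) (hna : ¬ IsMulCommutative A) (hcop : (Nat.card G).Coprime (p * q))
    (hfpf : ∀ g : G, (∀ a : A, a • g = g) → g = 1) :
    ∃ k h : SD A G, FA (iG A G).range k h ∧ Nat.card (zpowers k) = p ∧ Nat.card (zpowers h) = q := by
  obtain ⟨k, h, h1, h2, h3, h4, h5⟩ := exists_pq hp hq hqp hA hna
  have hi := iA_injective (A := A) (G := G)
  have e1 : Nat.card (zpowers (iA A G k)) = p := by rw [Nat.card_zpowers, orderOf_injective _ hi, h1]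
  have e2 : Nat.card (zpowers (iA A G h)) = q := by rw [Nat.card_zpowers, orderOf_injective _ hi, h2]
  have e : fA (iA A G k) (iA A G h) = map (iA A G) ⊤ := by
    rw [← h4, Subgroup.map_sup, MonoidHom.map_zpowers, MonoidHom.map_zpowers]
  refine ⟨_, _, ⟨e1 ▸ hp, e2 ▸ hq, by rw [e1, e2]; exact (Nat.coprime_primes hq hp).mpr hqp.ne, ?_,
    eq_bot_iff.mpr ?_, norm_range _, ?_, solv_range hs, e ▸ range_inf_cent ⊤
      fun g hg => hfpf g fun a => hg a trivial⟩, e1, e2⟩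
  · rw [← MonoidHom.map_zpowers, ← MonoidHom.map_zpowers]
    exact (map_mono le_normalizer_of_normal).trans (le_normalizer_map _)
  · rw [← MonoidHom.map_zpowers]
    rintro _ ⟨⟨b, hb, rfl⟩, hc⟩
    rw [h5.le ⟨hb, mem_cent1_iff.mpr (hi (by simpa using mem_cent1_iff.mp hc))⟩, map_one]
    exact one_mem _
  · rw [e, card_map_of_injective hi, card_range_iG, card_top, hA]
    exact hcop.symm

end Cfsg.Agent.FH
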